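import Cfsg.Agent.CGT.DceMul

set_option autoImplicit false
set_option Elab.async false
set_option maxRecDepth 100000
set_option linter.all false

namespace Cfsg.Agent.ThCc
open Cfsg.Agent.CGT

noncomputable def RR : List (List ℕ) := [[0, 0], [2, 2], [4, 4], [6, 6], [0, 6, 0, 6], [0, 5, 3, 5, 3, 5, 3, 5, 3], [2, 6, 2, 6], [4, 6, 4, 6, 4, 6], [8, 8, 8, 8, 8, 8, 8], [9, 1, 8, 0], [9, 3, 8, 2], [8, 4, 8, 4], [7, 9, 6, 9, 9, 7, 8, 8, 8], [10, 10, 10], [11, 1, 10, 0], [11, 3, 10, 2], [11, 5, 10, 4], [11, 7, 10, 6], [11, 8, 10, 9, 9], [12, 12, 3, 1], [13, 1, 12, 0], [13, 3, 12, 2], [13, 7, 12, 6], [4, 6, 13, 4, 12, 4, 6, 13, 4, 12], [13, 10, 12, 10], [7, 9, 9, 13, 8, 8, 6, 9, 9, 12, 8, 8], [0, 2, 9, 13, 9, 13, 9, 13], [0, 2, 9, 13, 8, 12, 9, 13, 8, 12, 9, 13, 8, 12,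 9, 13, 8, 12], [4, 9, 9, 12, 8, 8, 4, 9, 9, 12, 8, 8, 4, 9, 9, 12, 8, 8, 4, 9, 9, 12, 7, 5, 3, 4, 6, 8, 8, 8, 7, 5, 3, 4, 6, 9, 5, 3, 4, 3, 1], [4, 6, 8, 2, 4, 6, 8, 2, 4, 6, 8, 2, 4, 6, 8, 2, 4, 6, 8, 2, 4, 6, 8, 2, 4, 6, 8, 2, 4, 6, 8, 2, 4, 6, 8, 2]]

end Cfsg.Agent.ThCc
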